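import Cfsg.Agent.Lib.Grp.F42.Defs

set_option autoImplicit false
set_option maxRecDepth 100000
set_option Elab.async false
set_option linter.unusedSectionVars false

namespace Cfsg.Agent.CG.F42

theorem c463 : oneAll 24 (appB tabs t41 0xffffff) [40,39,37,39,35,38,39,37,35,37,39,40,39,40,36,36,37,35,38,36,37,36,37,35,35,39,35,37,38,39,35,39] 51832 12958 = true := by decide +kernel
theorem c464 : oneAll 24 (appB tabs t41 0xffffff) [40,39,37,39,35,38,39,37,35,37,39,40,39,40,36,36,37,35,38,36,37,36,37,35,35,39,35,37,38,39,35,39] 64790 4825 = true := by decide +kernel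
theorem c465 : eqAll 24 (appB tabs t41 0xffffff) [0] (nth inW [] 0) 0 11881 = true := by decide +kernel
theorem c466 : eqAll 24 (appB tabs t41 0xffffff) [0] (nth inW [] 0) 11881 11881 = true := by decide +kernel
theorem c467 : eqAll 24 (appB tabs t41 0xffffff) [0] (nth inW [] 0) 23762 11881 = true := by decide +kernel
theorem c468 : eqAll 24 (appB tabs t41 0xffffff) [0] (nth inW [] 0) 35643 11881 = true := by decide +kernel
theorem c469 : eqAll 24 (appB tabs t41 0xffffff) [0] (nth inW [] 0) 47524 11881 = true := by decide +kernel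
theorem c470 : eqAll 24 (appB tabs t41 0xffffff) [0] (nth inW [] 0) 59405 10210 = true := by decide +kernel
theorem c471 : eqAll 24 (appB tabs t41 0xffffff) [1] (nth inW [] 1) 0 12578 = true := by decide +kernel
theorem c472 : eqAll 24 (appB tabs t41 0xffffff) [1] (nth inW [] 1) 12578 12578 = true := by decide +kernel
theorem c473 : eqAll 24 (appB tabs t41 0xffffff) [1] (nth inW [] 1) 25156 12578 = true := by decide +kernel
theorem c474 : eqAll 24 (appB tabs t41 0xffffff) [1] (nth inW [] 1) 37734 12578 = true := by decide +kernel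
theorem c475 : eqAll 24 (appB tabs t41 0xffffff) [1] (nth inW [] 1) 50312 12578 = true := by decide +kernel
theorem c476 : eqAll 24 (appB tabs t41 0xffffff) [1] (nth inW [] 1) 62890 6725 = true := by decide +kernel
theorem c477 : eqAll 24 (appB tabs t41 0xffffff) [2] (nth inW [] 2) 0 12219 = true := by decide +kernel
theorem c478 : eqAll 24 (appB tabs t41 0xffffff) [2] (nth inW [] 2) 12219 12219 = true := by decide +kernel
theorem c479 : eqAll 24 (appB tabs t41 0xffffff) [2] (nth inW [] 2) 24438 12219 = true := by decide +kernel
theorem c480 : eqAll 24 (appB tabs t41 0xffffff) [2] (nth inW [] 2) 36657 12219 = true := by decide +kernel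
theorem c481 : eqAll 24 (appB tabs t41 0xffffff) [2] (nth inW [] 2) 48876 12219 = true := by decide +kernel
theorem c482 : eqAll 24 (appB tabs t41 0xffffff) [2] (nth inW [] 2) 61095 8520 = true := by decide +kernel

end Cfsg.Agent.CG.F42
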